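import Cfsg.Agent.ExA.E8b
import Cfsg.Agent.ExA.F

/-! Alternating sections of the groups of type `E₈`. -/

set_option autoImplicit false

namespace CF.ExA

open Matrix hiding zpow_mul one_zpow zpow_sub
open Subgroup Function CF.BN CF.Chev Finset Equiv Equiv.Perm Multiplicative Cfsg.Lie

section

variable {K : Type*} [Field K] {G : Type*} [Group G] {ρ : StRep cE8 K G} {p : ℕ} [Fact p.Prime]
  [CharP K p] {h : Univ ρ} {X : Type*} [Group X] {F : X →* G} (E : In p h F) (hp : 3 ≠ p)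
include E hp

theorem frame {ℓ : ℕ} [Fact ℓ.Prime] (hℓ : ℓ ≠ p) (h3 : 3 ≠ ℓ) {a b x t : X} (e : Commute b a)
    (e₁ : Commute a x) (e₂ : Commute b x) (ha : a ^ 3 = 1) (hb : b ^ 3 = 1) (hx : x ^ ℓ = 1)
    (h1 : t * a * t⁻¹ = b) (h2 : t * b * t⁻¹ = b * a) (h0 : a ≠ 1) :
    ∃ F' : X →* G, In p h F' ∧ ∃ (ψ : AddChar (ZMod 3) Kˣ) (ψ' : AddChar (ZMod ℓ) Kˣ)
      (v : Fin 8 → ZMod 3) (Z : Fin 8 → ZMod ℓ), Injective ψ ∧ Injective ψ' ∧ (v = yA ∨ v = yD) ∧
      F' a = h.r3.tor (fun i => ψ (y₁ i)) ∧ F' b = h.r3.tor (fun i => ψ (v i)) ∧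
      F' x = h.r3.tor fun i => ψ' (Z i) := by
  have := E.big.1
  have h4 := (Nat.coprime_primes Fact.out Fact.out).2 hℓ
  obtain ⟨g, hg, h5⟩ := toral_cent E.big Nat.prime_three hp h4
    ((Nat.coprime_primes Nat.prime_three Fact.out).2 h3) (E.alg x) (E.alg a) (E.alg b) (e.map F)
    (e₁.map F) (e₂.map F) (by rw [← map_pow, ha, map_one]) (by rw [← map_pow, hb, map_one])
    (by rw [← map_pow, hx, map_one])
  have E' := E.conj (inv_mem hg)
  set F' := (MulAut.conj g⁻¹).toMonoidHom.comp F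
  have h6 : ∀ {m : ℕ} {ψ : AddChar (ZMod m) Kˣ} {y}, (∀ c : Fin 8 → Kˣ, c ^ m = 1 →
      ∃ u : Fin 8 → ZMod m, c = fun i => ψ (u i)) → F y ∈ ({F x, F b, F a} : Set G) → y ^ m = 1 →
      ∃ u : Fin 8 → ZMod m, F' y = h.r3.tor fun i => ψ (u i) := fun {m ψ y} H hy e => by
    obtain ⟨c, hc⟩ := h.r3.range_tor.ge (h5 _ hy)
    have hc' : h.r3.tor c = F' y := by simp [hc, F']
    obtain ⟨u, rfl⟩ := H c (h.inj (by rw [map_pow, hc', ← map_pow, e, map_one, map_one]))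
    exact ⟨u, hc'.symm⟩
  obtain ⟨ψ, hψ, h7⟩ := exists_ψ (B := Fin 8) (K := K) (m := 3)
    ((Nat.coprime_primes Nat.prime_three Fact.out).2 hp)
  obtain ⟨ψ', hψ', h8⟩ := exists_ψ (B := Fin 8) (K := K) h4
  obtain ⟨u, hu⟩ := h6 h7 (y := a) (by simp) ha
  obtain ⟨v, hv⟩ := h6 h7 (y := b) (by simp) hb
  obtain ⟨Z, hZ⟩ := h6 h8 (y := x) (by simp) hx
  obtain ⟨w, hw, h9⟩ := exists_Wz h (F' t)
  have h10 := h9 hψ u v (by rw [← hu, ← hv, ← h1]; simp)
  have h11 := h9 hψ v (v + u) (by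
    rw [← hv, ← map_inv, ← map_mul, ← map_mul, h2, map_mul, hu, hv, ← map_mul]
    exact congrArg _ (funext fun i => (ψ.map_add_eq_mul _ _).symm))
  have h12 : u ≠ 0 := fun e => h0 (E'.inj (by
    rw [hu, e, map_one, ← map_one h.r3.tor]; exact congrArg _ (funext fun i => ψ.map_zero_eq_one)))
  have h13 : qE u = 0 := by
    have a1 := qE_Mz hw u
    have a2 := qE_Mz hw v
    have a3 := qE_Mz hw (v + u)
    rw [mulVec_add, h11, h10] at a3
    rw [h10] at a1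
    rw [h11] at a2
    have h3 : (3 : ZMod 3) = 0 := rfl
    simp only [qE, Pi.add_apply] at *
    linear_combination a2 + 3 * a1 - a3 + (u 0 * (u 0 - u 2) + u 1 * (u 1 - u 3) +
      u 2 * (u 2 - u 3) + u 3 * (u 3 - u 4) + u 4 * (u 4 - u 5) + u 5 * (u 5 - u 6) +
      u 6 * (u 6 - u 7) + u 7 * u 7) * h3
  obtain ⟨w', hw', h14, h15⟩ := exists_pair (v := v) h13 (by rw [← h10, qE_Mz hw, h13])
    (by rw [← h11, qE_Mz hw, ← h10, qE_Mz hw, h13]) h12
    (fun e => h12 (by simpa [e] using h11.symm))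
    (fun e => h12 (by rw [e] at h10 h11; simpa [h10] using h11.symm))
    (fun e => h12 (by rw [e] at h10 h11; simpa [mulVec_neg, h10] using h11))
  obtain ⟨n, hn, h16⟩ := exists_nw (h := h) (p := p) hw'
  exact ⟨_, E'.conj hn, ψ, ψ', _, _, hψ, hψ', h15, by rw [← h14, ← h16, ← hu]; rfl,
    by rw [← h16, ← hv]; rfl, by rw [← h16, ← hZ]; rfl⟩

theorem typeD [Finite X] {Q : Type*} [Group Q] {π : X →* Q} (hc : Cen 3 π) {D : Subgroup Q}
    [IsSimpleGroup D] (h7 : 7 ∣ Nat.card D) {M : Subgroup X} (hD : D ≤ M.map π) {a b : X}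
    (hM : ∀ g ∈ M, Commute g a ∧ Commute g b) {ψ : AddChar (ZMod 3) Kˣ} (hψ : Injective ψ)
    (ha : F a = h.r3.tor fun i => ψ (y₁ i)) (hb : F b = h.r3.tor fun i => ψ (yD i)) {c d y : M}
    (e : Commute d c) (h1 : π c ∈ D) (h2 : π d ∈ D) (h3 : c ^ 3 = 1) (h4 : d ^ 3 = 1)
    (h5 : y * c * y⁻¹ = c⁻¹) (h6 : y * d * y⁻¹ = d⁻¹) : Toral ρ {F a, F b, F d, F c} := by
  have := E.big.1
  obtain ⟨m, hm, hmp, h8, h9⟩ : ∃ m : ℕ, m.Prime ∧ m ≠ p ∧ 12 ≤ m ∧ 7 ≠ m ∧
      ∀ i ≤ 4, 0 < i → ¬ 7 ∣ m ^ i - 1 := by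
    by_cases h : 17 = p
    exacts [⟨19, by decide, by omega, by decide⟩, ⟨17, by decide, h, by decide⟩]
  have := Fact.mk hm
  have h10 := (Nat.coprime_primes hm Fact.out).2 hmp
  obtain ⟨z, hz⟩ := exists_orderOf (K := K) (n := m) fun e => (Fact.out : p.Prime).ne_one
    (Nat.Coprime.eq_one_of_dvd h10.symm ((CharP.cast_eq_zero_iff K p m).1 e))
  have H : TabOf cE8 tabE8 := tabOf certE8
  have h11 : ∀ r, |pr cE8 ![16, 23, 31, 46, 38, 30, 21, 11] (cE8.vec r)| < 12 ∧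
      (pr cE8 ![16, 23, 31, 46, 38, 30, 21, 11] (cE8.vec r) = 0 ↔
        dz y₁ (fun i => cE8.A (cE8.simple i) r) = 0 ∧ dz yD (fun i => cE8.A (cE8.simple i) r) = 0) := by
    simp only [pr_vec, H.car]
    decide +kernel
  set x : Fin 8 → ℤ := ![16, 23, 31, 46, 38, 30, 21, 11]
  let T : Set (Fin 8 → Kˣ) := {fun i => ψ (y₁ i), fun i => ψ (yD i)}
  have h12 : ∀ r, rv cE8 (fun i => z ^ x i) r = 1 ↔ ∀ c ∈ T, rv cE8 c r = 1 := fun r => by
    have : ∀ s, ψ s = 1 ↔ s = 0 := fun s => by rw [← ψ.map_zero_eq_one, hψ.eq_iff]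
    simp only [T, Set.mem_insert_iff, Set.mem_singleton_iff, forall_eq_or_imp, forall_eq, rv_ψ,
      this, rv_zp, ← (h11 r).2, ← orderOf_dvd_iff_zpow_eq_one, hz]
    exact ⟨fun e => Int.eq_zero_of_abs_lt_dvd e ((h11 r).1.trans_le (by exact_mod_cast h8)),
      fun e => e ▸ dvd_zero _⟩
  have h13 : (fun i => z ^ x i) ^ m = 1 := funext fun i => by
    rw [Pi.pow_apply, ← zpow_natCast, ← zpow_mul, mul_comm, zpow_mul, zpow_natCast, ← hz,
      pow_orderOf_eq_one, one_zpow, Pi.one_apply]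
  let σ : M →* MulAut ((Zc cE8 T m).map h.r3.tor) := (normalizerMonoidHom _).comp
    ((F.comp M.subtype).codRestrict _ fun g => mem_norm_Zc h hm.pos (by
      rintro _ (rfl | rfl)
      exacts [ha ▸ (hM g g.2).1.map F, hb ▸ (hM g g.2).2.map F]))
  have h14 : ∀ {c : M}, π c ∈ D → c ^ 3 = 1 → y * c * y⁻¹ = c⁻¹ →
      Commute (F c) (h.r3.tor fun i => z ^ x i) := fun h1 h3 h5 => mul_inv_eq_iff_eq_mul.1
    (congrArg Subtype.val (DFunLike.congr_fun (hc.map_eq_one (by decide) hD σ (not_sec_Zc h cenE8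
      ![0, 5, 6, 7] (fun i => by
        rw [← h12, rv_zp]
        refine (show i ∈ Set.range _ ∨ pr cE8 x (cE8.vec (cE8.simple i)) = 0 from ?_).imp_right
          fun e => by rw [e, zpow_zero]
        simp only [pr_vec, H.car]
        revert i
        decide +kernel) (not_sec_GL (by decide) h7 h9.1 h9.2)) h1 h3 h5)
      (⟨h.r3.tor fun i => z ^ x i, _, ⟨h13, fun r => (h12 r).2⟩, rfl⟩ : (Zc cE8 T m).map h.r3.tor)))
  have h15 := isOfFinOrder_iff_pow_eq_one.2 ⟨_, hm.pos, h13⟩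
  obtain ⟨g, -, h16⟩ := toral_cent E.big Nat.prime_three hp h10
    ((Nat.coprime_primes Nat.prime_three hm).2 (by omega)) (h.tor_mem_Alg.2 h15) (E.alg c) (E.alg d)
    ((e.map M.subtype).map F) (h14 h1 h3 h5) (h14 h2 h4 h6)
    (by rw [← map_pow, ← Subgroup.coe_pow, h3]; simp) (by rw [← map_pow, ← Subgroup.coe_pow, h4]; simp)
    (by rw [← map_pow, h13, map_one])
  have h17 : ∀ {S}, ∀ c ∈ T, Toral ρ (insert (h.r3.tor fun i => z ^ x i) S) →
      Toral ρ (insert (h.r3.tor fun i => z ^ x i) (insert (h.r3.tor c) S)) := fun c hc H => by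
    rw [Set.insert_comm]
    exact Toral.insert h (by rwa [Set.insert_eq_of_mem (Set.mem_insert _ _)]) h15
      fun r e => (h12 r).1 e c hc
  rw [ha, hb]
  exact (h17 _ (.inl rfl) (h17 _ (.inr rfl) ⟨g, h16⟩)).mono (Set.subset_insert _ _)

end

/-- Nine points. -/
abbrev P9 := ZMod 3 × ZMod 3

/-- Translations on two blocks of nine points. -/
def tp9 : Multiplicative (Fin 4 → ZMod 3) →* Perm (P9 ⊕ P9) :=
  MonoidHom.mk' (fun v => Equiv.sumCongr (Equiv.addRight (toAdd v 0, toAdd v 1))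
    (Equiv.addRight (toAdd v 2, toAdd v 3))) fun a b => by
      ext (x | x) <;> simp [add_assoc, add_comm (toAdd a _)]

/-- The translations as even permutations. -/
def tr9 : Multiplicative (Fin 4 → ZMod 3) →* alternatingGroup (P9 ⊕ P9) :=
  tp9.codRestrict _ fun v => by
    have := congrArg (sign ∘ tp9) (pow_ell v)
    rw [mem_alternatingGroup]
    rcases Int.units_eq_one_or (sign (tp9 v)) with h | h
    · exact h
    · simp [h, (by decide : Odd 3).neg_one_pow] at this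

/-- Diagonal permutations. -/
def dg9 (c : Fin 4 → (ZMod 3)ˣ) : Perm (P9 ⊕ P9) :=
  Equiv.sumCongr (prodCongr (c 0).mulLeft (c 1).mulLeft) (prodCongr (c 2).mulLeft (c 3).mulLeft)

theorem act_dg9 (c : Fin 4 → (ZMod 3)ˣ) (h) :
    Act tr9 ⟨dg9 c, h⟩ fun v => ofAdd fun i => c i * toAdd v i := fun v => by
  rw [mul_inv_eq_iff_eq_mul]
  ext (x | x) <;> simp [tr9, tp9, dg9, mul_add, Prod.map]

/-- An element of order sixteen. -/
def t9 : alternatingGroup (P9 ⊕ P9) :=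
  ⟨⟨Sum.elim (fun x => .inr (x.2, x.1 + x.2)) .inl, Sum.elim .inr fun x => .inl (x.2 - x.1, x.1),
    by decide +kernel, by decide +kernel⟩, mem_alternatingGroup.2 (by decide +kernel)⟩

/-- Its action. -/
def m9 (v : Fin 4 → ZMod 3) : Fin 4 → ZMod 3 := ![v 2, v 3, v 1, v 0 + v 1]

theorem m9_eight : m9^[8] ![1, 0, 0, 0] = 2 • ![1, 0, 0, 0] := by
  change m9 (m9 (m9 (m9 (m9 (m9 (m9 (m9 _))))))) = _
  have h : ∀ a b c d, m9 ![a, b, c, d] = ![c, d, b, a + b] := fun _ _ _ _ => rfl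
  simp only [h]
  decide

theorem act_t9 : Act tr9 t9 fun v => ofAdd (m9 (toAdd v)) := fun v => by
  rw [mul_inv_eq_iff_eq_mul]
  ext (x | x) <;> simp [tr9, tp9, t9, m9, add_add_add_comm]

/-- The second block. -/
def j9 : alternatingGroup P9 →* alternatingGroup (P9 ⊕ P9) :=
  (((sumCongrHom P9 P9).comp (MonoidHom.inr _ _)).comp (alternatingGroup P9).subtype).codRestrict _
    fun x => by simpa using mem_alternatingGroup.1 x.2

theorem j9_inj : Injective j9 := fun _ _ e => Subtype.ext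
  (congrArg Prod.snd (sumCongrHom_injective (congrArg Subtype.val e)))

theorem mem_j9 {g : alternatingGroup (P9 ⊕ P9)} {τ : Perm P9} (h : g.1 = Perm.sumCongr 1 τ) :
    g ∈ j9.range :=
  ⟨⟨τ, by simpa [h] using mem_alternatingGroup.1 g.2⟩, Subtype.ext h.symm⟩

theorem exists_lift9 {X : Type*} [Group X] [Finite X] {π : X →* alternatingGroup (P9 ⊕ P9)}
    (hc : Cen 3 π) (hπ : Surjective π) : ∃ f : Multiplicative (Fin 4 → ZMod 3) →* X,
    (∀ v, π (f v) = tr9 v) ∧ Injective f ∧ (∃ y, Act f y fun v => ofAdd (m9 (toAdd v))) ∧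
      ∃ y, Act f y fun v => ofAdd fun i => (![1, 1, -1, -1] : Fin 4 → (ZMod 3)ˣ) i * toAdd v i := by
  have he : Injective tr9 := (injective_iff_map_eq_one _).2 fun v e => by
    have h1 := congrArg (fun x => x.1 (.inl 0)) e
    have h2 := congrArg (fun x => x.1 (.inr 0)) e
    simp [tr9, tp9] at h1 h2
    exact toAdd.injective (funext fun i => by fin_cases i <;> simp [h1, h2])
  have h1 : ∀ c ∈ [![1, -1, 1, -1], ![-1, -1, 1, 1], ![1, 1, -1, -1], -1],
      dg9 c ∈ alternatingGroup _ := by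
    simp only [mem_alternatingGroup]
    decide +kernel
  obtain ⟨f, h2, h3⟩ := hc.exists_lift hπ (by decide) pow_ell he (b := fun i => ofAdd (Pi.single i 1))
    (eq_top_iff.2 fun v _ => by
      rw [(by decide +kernel : ∀ v : Multiplicative (Fin 4 → ZMod 3), v = ∏ i,
        ofAdd (Pi.single i (1 : ZMod 3) : Fin 4 → ZMod 3) ^ (toAdd v i).val) v]
      exact Subgroup.prod_mem _ fun i _ => pow_mem (Subgroup.subset_closure (Set.mem_range_self i)) _)
    (fun i j hij => by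
      obtain ⟨c, hc, a, ha, h⟩ := (by decide +kernel : ∀ i j : Fin 4, i ≠ j →
        ∃ c ∈ [![1, -1, 1, -1], ![-1, -1, 1, 1], ![1, 1, -1, -1], (-1 : Fin 4 → (ZMod 3)ˣ)],
        ∃ a ∈ [(1 : ℤ), -1], (ofAdd fun k => c k * (Pi.single i 1 : Fin 4 → ZMod 3) k) =
          ofAdd (Pi.single i 1 : Fin 4 → ZMod 3) ^ a ∧ (ofAdd fun k => c k * (Pi.single j 1 :
          Fin 4 → ZMod 3) k) = ofAdd (Pi.single j 1 : Fin 4 → ZMod 3) ^ (-a) ∧
          ¬ ((3 : ℕ) : ℤ) ∣ a * -a - 1) i j hij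
      exact ⟨_, _, _, _, act_dg9 c (h1 c hc), h⟩)
    (s := ⟨dg9 (-1), h1 _ (by simp)⟩) fun v => (act_dg9 _ _ v).trans (congrArg _
      (toAdd.injective (funext fun j => by simp)))
  exact ⟨f, h2, fun a b e => he (by rw [← h2, e, h2]),
    (h3 _ _ act_t9 (Subtype.ext (show Commute t9.1 (dg9 _) by
      unfold Commute SemiconjBy; decide +kernel))).imp fun _ h => h.2,
    (h3 _ _ (act_dg9 _ (h1 _ (by simp))) (Subtype.ext (show Commute (dg9 _) (dg9 _) by
      unfold Commute SemiconjBy; decide +kernel))).imp fun _ h => h.2⟩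

variable {p q z : ℕ} [Fact p.Prime] {Y : Type*} [Group Y]

theorem not_sec_E8 (L : LS cE8 1 p q z Y) (hp : 3 ≠ p) : ¬ Sec (alternatingGroup (P9 ⊕ P9)) Y := by
  intro hs
  obtain ⟨X, φ, _, hm, E⟩ := exists_in L hs
  have := alternatingGroup.isSimpleGroup (α := P9 ⊕ P9) (by simp)
  have hW : Nat.card cE8.W = 696729600 := cardWE8
  have h17 : 17 ∣ Nat.card (alternatingGroup (P9 ⊕ P9)) := dvd_card_alt (by simp) (by simp; decide)
  have hc : Cen 3 φ := E.cen hm hp (a := 5) (by rw [hW]; decide) (by decide) (by decide) h17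
    (by decide)
  obtain ⟨ℓ, k, _, h1, h2, h3, h4, h5, h6, a, g, ha, hg⟩ : ∃ (ℓ k : ℕ) (_ : Fact ℓ.Prime), ℓ ≠ p ∧
      3 ≠ ℓ ∧ Cen ℓ φ ∧ (k : ZMod ℓ) ^ 2 ≠ 1 ∧ (k : ZMod ℓ) ^ 3 ≠ 1 ∧ (6 : ZMod ℓ) ≠ 0 ∧
      ∃ a g : alternatingGroup P9, orderOf a = ℓ ∧ g * a * g⁻¹ = a ^ k := by
    have H : ∀ {β : Type} [Fintype β] [DecidableEq β] {ℓ k : ℕ}, Fintype.card β ≤ 9 →
        (∃ a g : alternatingGroup β, orderOf a = ℓ ∧ g * a * g⁻¹ = a ^ k) →
        ∃ a g : alternatingGroup P9, orderOf a = ℓ ∧ g * a * g⁻¹ = a ^ k := fun h ⟨a, g, h1, h2⟩ => by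
      obtain ⟨f, hf⟩ := exists_alt_hom (β := P9) h
      exact ⟨f a, f g, by rw [orderOf_injective f hf, h1], by simpa using congrArg f h2⟩
    by_cases h : 5 = p
    · exact ⟨7, 3, inferInstance, by omega, by decide, E.cen hm (by omega) (a := 1)
        (by rw [hW]; decide) (by decide) (by decide) h17 (by decide), by decide, by decide, by decide,
        H (by simp) (exists_aff (by decide) (ZMod.unitOfCoprime 3 (by decide)) (swap (0 : Fin 2) 1)
          (by decide +kernel) rfl)⟩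
    · exact ⟨5, 2, inferInstance, h, by decide, E.cen hm h (a := 2)
        (by rw [hW]; decide) (by decide) (by decide) h17 (by decide), by decide, by decide, by decide,
        H (by simp) (exists_aff (by decide) (ZMod.unitOfCoprime 2 (by decide)) (swap (0 : Fin 2) 1)
          (by decide +kernel) rfl)⟩
  obtain ⟨f, h7, h8, ⟨t, ht⟩, s, hs⟩ := exists_lift9 hc hm.surj
  let ι : Multiplicative (Fin 4 → ZMod 3) →* Multiplicative (Fin 4 → ZMod 3) :=
    MonoidHom.mk' (fun v => ofAdd ![toAdd v 0, toAdd v 1, 0, 0]) fun a b =>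
      toAdd.injective (funext fun i => by fin_cases i <;> simp)
  have h9 := hc.exists_cent hm.surj (fun v => ⟨1, pow_ell (ℓ := 3) v⟩) (f.comp ι) (C := j9.range) (by
    rintro _ ⟨g, rfl⟩ v
    rw [MonoidHom.comp_apply, h7]
    ext (x | x) <;> simp [j9, tr9, tp9, ι, Prod.mk_zero_zero])
  rw [MonoidHom.range_eq_map, ← map_commutator, ← _root_.commutator_def,
    commutator_alternatingGroup_eq_top (by simp), ← MonoidHom.range_eq_map] at h9
  set M := centralizer ((f.comp ι).range : Set X)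
  have h10 : ∀ g ∈ M, Commute g (f (ofAdd ![1, 0, 0, 0])) ∧ Commute g (f (ofAdd ![0, 1, 0, 0])) :=
    fun g hg => ⟨(hg _ ⟨ofAdd ![1, 0, 0, 0], rfl⟩).symm, (hg _ ⟨ofAdd ![0, 1, 0, 0], rfl⟩).symm⟩
  obtain ⟨x, hx, y, hy, h11, h12⟩ := h3.exists_eig ((orderOf_injective _ j9_inj a).trans ha)
    (g := j9 g) (k := k) (by simpa using congrArg j9 hg) (h9 ⟨a, rfl⟩) (h9 ⟨g, rfl⟩)
  have h13 : ∀ v, f v ^ 3 = 1 := fun v => by rw [← map_pow, pow_ell, map_one]
  have h14 : ∀ v, t * t * f v * (t * t)⁻¹ = f (ofAdd (m9 (m9 (toAdd v)))) := fun v => by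
    rw [show t * t * f v * (t * t)⁻¹ = t * (t * f v * t⁻¹) * t⁻¹ by group, ht, ht]; rfl
  obtain ⟨F, E, ψ, ψ', v, Z, hψ, hψ', hv, e₁, e₂, e₃⟩ := frame E hp h1 h2 ((Commute.all _ _).map f)
    (h10 x hx).1.symm (h10 x hx).2.symm (h13 _) (h13 _) (h11 ▸ pow_orderOf_eq_one x) (t := t * t)
    ((h14 _).trans (congrArg f (by decide))) (by
      rw [h14, ← map_mul]; exact congrArg f (by decide))
    fun e => absurd (h8 (e.trans (map_one f).symm)) (by decide)
  rcases hv with rfl | rfl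
  · obtain ⟨w, hw, H⟩ := exists_Wz L.h (F y)
    obtain rfl := typeA hw (H hψ _ _ (e₁ ▸ ((h10 y hy).1.map F).mul_inv_cancel))
      (H hψ _ _ (e₂ ▸ ((h10 y hy).2.map F).mul_inv_cancel)) (k := k) (H hψ' Z _ (by
        rw [← e₃, ← map_inv, ← map_mul, ← map_mul, h12, map_pow, e₃, ← map_pow]
        exact congrArg _ (funext fun i => by simp [← AddChar.map_nsmul_eq_pow]))) h4 h5 h6
    rw [show (fun i => ψ' ((0 : Fin 8 → ZMod ℓ) i)) = 1 from funext fun i => ψ'.map_zero_eq_one,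
      map_one, ← map_one F, E.inj.eq_iff] at e₃
    exact (Fact.out : ℓ.Prime).ne_one (by rw [← h11, e₃, orderOf_one])
  have := alternatingGroup.isSimpleGroup (α := P9) (by simp)
  have := (MonoidHom.ofInjective j9_inj).symm.isSimpleGroup
  have h15 : ∀ v, f v ∈ M := by
    rintro v _ ⟨u, rfl⟩
    exact ((Commute.all _ _).map f).eq
  have h16 := typeD E hp hc (D := j9.range) (by
      rw [← Nat.card_congr (MonoidHom.ofInjective j9_inj).toEquiv]
      exact dvd_card_alt (by simp) (by simp; decide)) h9 h10 hψ e₁ e₂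
    (c := ⟨_, h15 (ofAdd ![0, 0, 1, 0])⟩) (d := ⟨_, h15 (ofAdd ![0, 0, 0, 1])⟩) (y := ⟨s, by
      rintro _ ⟨u, rfl⟩
      exact (mul_inv_eq_iff_eq_mul.1 ((hs _).trans (congrArg f (toAdd.injective
        (funext fun i => by fin_cases i <;> simp [ι]))))).symm⟩)
    (Subtype.ext ((Commute.all _ _).map f).eq)
    (mem_j9 (τ := Equiv.addRight (1, 0)) (by rw [h7]; decide +kernel))
    (mem_j9 (τ := Equiv.addRight (0, 1)) (by rw [h7]; decide +kernel))
    (Subtype.ext (h13 _)) (Subtype.ext (h13 _))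
    (Subtype.ext ((hs _).trans ((congrArg f (by decide)).trans (map_inv f _))))
    (Subtype.ext ((hs _).trans ((congrArg f (by decide)).trans (map_inv f _))))
  obtain ⟨Y, h17, -, h18⟩ := E.lin hp h8 (h16.closure.mono (by
    rintro _ ⟨v, rfl⟩
    rw [(by decide +kernel : ∀ v : Multiplicative (Fin 4 → ZMod 3), v =
      ofAdd ![1, 0, 0, 0] ^ (toAdd v 0).val * ofAdd ![0, 1, 0, 0] ^ (toAdd v 1).val *
      ofAdd ![0, 0, 1, 0] ^ (toAdd v 2).val * ofAdd ![0, 0, 0, 1] ^ (toAdd v 3).val) v]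
    simp only [map_mul, map_pow]
    refine mul_mem (mul_mem (mul_mem ?_ ?_) ?_) ?_ <;>
      exact pow_mem (Subgroup.subset_closure (by simp)) _))
  obtain ⟨w, hw, h19⟩ := h18 m9 ⟨t, fun v => ht _⟩
  have h20 : ∀ n v, Mz cE8 3 w ^ n *ᵥ Y v = Y (m9^[n] v) := fun n v => by
    induction' n with n ih
    · simp
    · rw [pow_succ', ← mulVec_mulVec, ih, h19, iterate_succ_apply']
  have h21 := smul_card_W (pow_mem hw 8) (v := Y ![1, 0, 0, 0]) (k := 2) (by
    rw [Mz_pow hw, h20, m9_eight, map_nsmul]) 42525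
  rw [← Mz_pow (pow_mem hw 8), ← pow_mul, exp_E8 hw, Mz_one, one_mulVec,
    ← Nat.cast_smul_eq_nsmul (ZMod 3), Nat.cast_pow, show ((2 : ℕ) : ZMod 3) = -1 from rfl,
    Odd.neg_one_pow (n := 42525) ⟨21262, rfl⟩, ← map_smul, h17.eq_iff] at h21
  exact absurd h21 (by decide)

theorem bound_E8 (L : LS cE8 1 p q z Y) {r : ℕ} (h : Sec (alternatingGroup (Fin r)) Y) :
    r ≤ 17 + (if p = 3 then 1 else 0) := by
  by_contra! hr
  split_ifs at hr with hp
  · obtain ⟨w, hw, v, h1, h2⟩ := eigz_of_sec L (h.alt (by simp; omega)) (ℓ := 17) (by omega)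
      (by rw [show Nat.card cE8.W = _ from cardWE8]; decide) (k := 3)
      (exists_aff (by decide) (ZMod.unitOfCoprime 3 (by decide)) (swap (0 : Fin 2) 1)
        (by decide +kernel) rfl)
    exact h1 (rat17 ⟨w, hw, h2⟩)
  · exact not_sec_E8 L (Ne.symm hp) (h.alt (by simp; omega))

end CF.ExA
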